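import Cfsg.Agent.Perm.ONS

/-! Scott's lemma and invariant subgroups of powers of a nonabelian simple group. -/

namespace CF.Xs
open Subgroup
open scoped commutatorElement

variable {T : Type*} [Group T] [IsSimpleGroup T] (hT : ¬ IsMulCommutative T)
include hT

theorem commutator_top_simple : ⁅(⊤ : Subgroup T), (⊤ : Subgroup T)⁆ = ⊤ :=
  (IsSimpleGroup.eq_bot_or_eq_top_of_normal _ inferInstance).resolve_left fun h =>
    hT ⟨⟨fun a b => (commutator_eq_bot_iff_le_centralizer.1 h (mem_top b) a (mem_top a))⟩⟩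

theorem exists_multi {D ι : Type*} [Group D] (f : ι → D →* T) (hf : ∀ i, Function.Surjective (f i))
    (S : Finset ι) (hS : ∀ i ∈ S, ∀ j ∈ S, (f i).ker = (f j).ker → i = j) (t : ι → T) :
    ∃ d, ∀ i ∈ S, f i d = t i := by
  classical
  have h1 : ∀ i j, (f i).ker ≠ (f j).ker → (f j).ker.map (f i) = ⊤ := fun i j h => by
    refine (IsSimpleGroup.eq_bot_or_eq_top_of_normal _
      ((MonoidHom.normal_ker _).map _ (hf i))).resolve_left fun h1 => h ?_
    rw [Subgroup.map_eq_bot_iff] at h1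
    rcases IsSimpleGroup.eq_bot_or_eq_top_of_normal _
      ((MonoidHom.normal_ker (f i)).map _ (hf j)) with h2 | h2
    · exact le_antisymm (Subgroup.map_eq_bot_iff _ |>.1 h2) h1
    · exfalso
      obtain ⟨x, hx⟩ := exists_ne (1 : T)
      obtain ⟨d, rfl⟩ := hf i x
      obtain ⟨e, he, h3⟩ := (h2 ▸ mem_top (f j d) : f j d ∈ (f i).ker.map (f j))
      have h4 : e⁻¹ * d ∈ (f i).ker := h1 (by simp [MonoidHom.mem_ker, h3])
      exact hx (by simpa using (f i).ker.mul_mem he h4)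
  have h2 : ∀ (i : ι) (U : Finset ι), (∀ j ∈ U, (f i).ker ≠ (f j).ker) →
      (⨅ j ∈ U, (f j).ker).map (f i) = ⊤ := fun i U => by
    induction U using Finset.induction_on with
    | empty => intro; simpa [← MonoidHom.range_eq_map] using MonoidHom.range_eq_top.2 (hf i)
    | insert j U hj ih =>
      intro h
      have : (⨅ j ∈ U, (f j).ker).Normal := normal_iInf_normal fun _ => normal_iInf_normal fun _ =>
        inferInstance
      rw [Finset.iInf_insert, eq_top_iff, ← commutator_top_simple hT]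
      refine le_trans ?_ (map_mono (commutator_le_inf _ _))
      rw [map_commutator, h1 i j (h j (Finset.mem_insert_self _ _)),
        ih fun k hk => h k (Finset.mem_insert_of_mem hk)]
  induction S using Finset.induction_on with
  | empty => exact ⟨1, by simp⟩
  | insert i S hi ih =>
    obtain ⟨d, hd⟩ := ih fun a ha b hb =>
      hS a (Finset.mem_insert_of_mem ha) b (Finset.mem_insert_of_mem hb)
    obtain ⟨m, hm, e⟩ := (h2 i S (fun j hj h => hi (hS i (Finset.mem_insert_self _ _) j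
      (Finset.mem_insert_of_mem hj) h ▸ hj)) ▸ mem_top ((f i d)⁻¹ * t i) :
        (f i d)⁻¹ * t i ∈ (⨅ j ∈ S, (f j).ker).map (f i))
    refine ⟨d * m, fun j hj => ?_⟩
    rcases Finset.mem_insert.1 hj with rfl | hj
    · rw [map_mul, e, mul_inv_cancel_left]
    · simp only [SetLike.mem_coe, mem_iInf] at hm
      rw [map_mul, hm j hj, mul_one, hd j hj]

omit hT [IsSimpleGroup T] in
theorem exists_equiv_of_ker_eq {D : Type*} [Group D] {f g : D →* T} (hf : Function.Surjective f)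
    (hg : Function.Surjective g) (h : f.ker = g.ker) : ∃ σ : T ≃* T, ∀ d, σ (f d) = g d :=
  ⟨(QuotientGroup.quotientKerEquivOfSurjective f hf).symm.trans
    ((QuotientGroup.quotientMulEquivOfEq h).trans (QuotientGroup.quotientKerEquivOfSurjective g hg)),
    fun d => by
      have : (QuotientGroup.quotientKerEquivOfSurjective f hf).symm (f d) = (d : D ⧸ f.ker) :=
        (MulEquiv.symm_apply_eq _).2 rfl
      rw [MulEquiv.trans_apply, this]
      rfl⟩

variable {ι : Type*} [Finite ι]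

theorem exists_coord {f : (ι → T) →* T} (hf : Function.Surjective f) :
    ∃ (i : ι) (β : T ≃* T), ∀ w, f w = β (w i) := by
  classical
  have := Fintype.ofFinite ι
  by_contra hc
  obtain ⟨x, hx⟩ := exists_ne (1 : T)
  obtain ⟨d, hd⟩ := exists_multi hT (fun o : Option ι => o.elim f fun i => Pi.evalMonoidHom _ i)
    (by rintro (_ | i); exacts [hf, Function.surjective_eval i]) Finset.univ (by
      rintro (_ | i) - (_ | j) - h
      · rfl
      · obtain ⟨σ, hσ⟩ := exists_equiv_of_ker_eq (Function.surjective_eval j) hf h.symm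
        exact (hc ⟨j, σ, fun w => (hσ w).symm⟩).elim
      · obtain ⟨σ, hσ⟩ := exists_equiv_of_ker_eq (Function.surjective_eval i) hf h
        exact (hc ⟨i, σ, fun w => (hσ w).symm⟩).elim
      · by_contra hij
        have h1 : (Pi.mulSingle i x : ι → T) ∈ (Pi.evalMonoidHom (fun _ => T) j).ker :=
          Pi.mulSingle_eq_of_ne (M := fun _ => T) (fun h => hij (congrArg some h.symm)) x
        have h2 : (Pi.mulSingle i x : ι → T) ∈ (Pi.evalMonoidHom (fun _ => T) i).ker :=
          (show (Pi.evalMonoidHom (fun _ => T) i).ker = _ from h) ▸ h1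
        exact hx (by simpa using h2)) fun o => o.elim x fun _ => 1
  have h1 : d = 1 := funext fun i => hd (some i) (Finset.mem_univ _)
  have h2 := hd none (Finset.mem_univ _)
  rw [h1, map_one] at h2
  exact hx h2.symm

theorem exists_perm (γ : MulAut (ι → T)) :
    ∃ (ρ : ι ≃ ι) (β : ι → T ≃* T), ∀ w j, γ w j = β j (w (ρ j)) := by
  classical
  choose ρ β h using fun j => exists_coord hT
    (f := (Pi.evalMonoidHom _ j).comp γ.toMonoidHom) ((Function.surjective_eval j).comp γ.surjective)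
  have hs : Function.Surjective ρ := fun i => by
    by_contra hc
    push Not at hc
    obtain ⟨x, hx⟩ := exists_ne (1 : T)
    have : γ (Pi.mulSingle i x) = 1 := funext fun j =>
      (h j _).trans (by rw [Pi.mulSingle_eq_of_ne (hc j), map_one]; rfl)
    exact hx (by simpa using congrFun (γ.map_eq_one_iff.1 this) i)
  exact ⟨Equiv.ofBijective ρ (Finite.surjective_iff_bijective.1 hs), β, fun w j => h j w⟩

theorem scott {K : Type*} [Group K] (ψ : K →* MulAut (ι → T)) (D : Subgroup (ι → T)) (hD : D ≠ ⊤)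
    (h1 : ∀ k, ∀ w ∈ D, ψ k w ∈ D)
    (h2 : ∀ R : Subgroup (ι → T), (∀ k, ∀ w ∈ R, ψ k w ∈ R) → D ≤ R → R = D ∨ R = ⊤)
    (h3 : ∀ M : Subgroup (ι → T), M.Normal → (∀ k, ∀ w ∈ M, ψ k w ∈ M) → M = ⊥ ∨ M = ⊤) :
    (∃ L : ι → Subgroup T, (∀ i, L i ≠ ⊤) ∧ ∀ w, w ∈ D ↔ ∀ i, w i ∈ L i) ∨
    ∃ (σ : ι → T ≃* T) (k : ℕ) (c : ι → ι), 2 ≤ k ∧
      (∀ j, Nat.card {i // c i = j} = k ∨ Nat.card {i // c i = j} = 0) ∧
      ∀ w, w ∈ D ↔ ∀ i j, c i = c j → σ i (w i) = σ j (w j) := by
  classical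
  have := Fintype.ofFinite ι
  obtain ⟨x, hx⟩ := exists_ne (1 : T)
  have htr : ∀ i j, ∃ k, ∃ β : T ≃* T, ∀ w, ψ k w j = β (w i) := fun i => by
    let M : Subgroup (ι → T) :=
      ⨅ j ∈ {j | ∃ k, ∃ β : T ≃* T, ∀ w, ψ k w j = β (w i)}, (Pi.evalMonoidHom _ j).ker
    have hM : ∀ w, w ∈ M ↔ ∀ j, (∃ k, ∃ β : T ≃* T, ∀ w, ψ k w j = β (w i)) → w j = 1 :=
      fun w => by simp [M, mem_iInf]
    rcases h3 M (normal_iInf_normal fun _ => normal_iInf_normal fun _ => inferInstance)
      (fun k w hw => (hM _).2 fun j ⟨l, β, hl⟩ => by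
        obtain ⟨ρ, β', h⟩ := exists_perm hT (ψ k)
        rw [h, (hM w).1 hw (ρ j) ⟨k⁻¹ * l, β.trans (β' j).symm, fun v => ?_⟩, map_one]
        rw [MulEquiv.trans_apply, MulEquiv.eq_symm_apply, ← h, ← MulAut.mul_apply, ← map_mul,
          mul_inv_cancel_left, hl]) with h | h
    · intro j
      by_contra hj
      have : (Pi.mulSingle j x : ι → T) ∈ M := (hM _).2 fun l hl =>
        Pi.mulSingle_eq_of_ne (M := fun _ => T) (fun h : l = j => hj (h ▸ hl)) x
      rw [h, mem_bot] at this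
      exact hx (by simpa using congrFun this j)
    · exact absurd ((hM fun _ => x).1 (h ▸ mem_top _) i ⟨1, MulEquiv.refl T, by simp⟩) hx
  set f : ι → D →* T := fun i => (Pi.evalMonoidHom _ i).comp D.subtype with hf
  by_cases hs : ∀ i, Function.Surjective (f i)
  · right
    let s : Setoid ι := Setoid.ker fun i => (f i).ker
    let c : ι → ι := fun i => (Quotient.mk s i).out
    have hc : ∀ i, (f (c i)).ker = (f i).ker := fun i => Quotient.mk_out (s := s) i
    have hcc : ∀ i j, c i = c j ↔ (f i).ker = (f j).ker := fun i j =>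
      Quotient.out_inj.trans (Quotient.eq (r := s))
    choose σ hσ using fun i => exists_equiv_of_ker_eq (hs i) (hs (c i)) (hc i).symm
    have hD' : ∀ w, w ∈ D ↔ ∀ i j, c i = c j → σ i (w i) = σ j (w j) := fun w => by
      refine ⟨fun hw i j h => (hσ i ⟨w, hw⟩).trans (h ▸ (hσ j ⟨w, hw⟩).symm), fun h => ?_⟩
      obtain ⟨d, hd⟩ := exists_multi hT f hs (Finset.univ.image c) (fun a ha b hb h => by
        obtain ⟨a, -, rfl⟩ := Finset.mem_image.1 ha
        obtain ⟨b, -, rfl⟩ := Finset.mem_image.1 hb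
        exact (hcc a b).2 ((hc a).symm.trans (h.trans (hc b)))) fun i => σ i (w i)
      have : d.1 = w := funext fun i => (σ i).injective <| by
        rw [h i (c i) ((hcc _ _).2 (hc i).symm), ← hd _ (Finset.mem_image_of_mem c
          (Finset.mem_univ i))]
        exact hσ i d
      exact this ▸ d.2
    have hcard : ∀ i j, Nat.card {a // c a = c i} = Nat.card {a // c a = c j} := fun i j => by
      obtain ⟨k, β, hk⟩ := htr i j
      obtain ⟨ρ, β', h⟩ := exists_perm hT (ψ k)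
      have hρ : ρ j = i := by
        by_contra hne
        have := (hk (Pi.mulSingle i x)).symm.trans (h _ j)
        rw [Pi.mulSingle_eq_of_ne hne, map_one, Pi.mulSingle_eq_same] at this
        exact hx (β.map_eq_one_iff.1 this)
      have hker : ∀ a b, (f (ρ a)).ker = (f (ρ b)).ker ↔ (f a).ker = (f b).ker := fun a b => by
        have e1 : ∀ (d : D) a, d ∈ (f (ρ a)).ker ↔ (⟨_, h1 k d d.2⟩ : D) ∈ (f a).ker := fun d a => by
          change d.1 (ρ a) = 1 ↔ ψ k d a = 1
          rw [h, MulEquiv.map_eq_one_iff]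
        refine ⟨fun e => Subgroup.ext fun d => ?_, fun e => Subgroup.ext fun d => by rw [e1, e1, e]⟩
        have e2 : d = ⟨_, h1 k _ (⟨_, h1 k⁻¹ d d.2⟩ : D).2⟩ := Subtype.ext (by simp)
        rw [e2, ← e1, ← e1, e]
      refine (Nat.card_congr (ρ.subtypeEquiv fun a => ?_)).symm
      rw [hcc, hcc, ← hρ, hker]
    rcases isEmpty_or_nonempty ι with hι | ⟨⟨i₀⟩⟩
    · exact absurd (Subsingleton.elim _ _) hD
    refine ⟨σ, Nat.card {a // c a = c i₀}, c, ?_, fun j => ?_, hD'⟩
    · by_contra hlt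
      refine hD (eq_top_iff.2 fun w _ => (hD' w).2 fun i j h => ?_)
      have h4 : Nat.card {a // c a = c j} ≤ 1 := by rw [hcard j i₀]; omega
      rw [show i = j from congrArg Subtype.val
        ((Finite.card_le_one_iff_subsingleton.1 h4).elim ⟨i, h⟩ ⟨j, rfl⟩)]
    · by_cases h : ∃ i, c i = j
      · obtain ⟨i, rfl⟩ := h
        exact Or.inl (hcard i i₀)
      · exact Or.inr (Nat.card_eq_zero.2 (Or.inl ⟨fun a => h ⟨a.1, a.2⟩⟩))
  · left
    push Not at hs
    obtain ⟨i₀, hi₀⟩ := hs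
    have hL : ∀ i, (f i).range ≠ ⊤ := fun i h => hi₀ fun t => by
      obtain ⟨k, β, hk⟩ := htr i i₀
      obtain ⟨d, hd⟩ := MonoidHom.range_eq_top.1 h (β.symm t)
      exact ⟨⟨_, h1 k d d.2⟩, (hk d).trans (by rw [show d.1 i = _ from hd]; simp)⟩
    refine ⟨fun i => (f i).range, hL, fun w => ?_⟩
    rcases h2 (Subgroup.pi Set.univ fun i => (f i).range) (fun k w hw j _ => by
      obtain ⟨ρ, β, h⟩ := exists_perm hT (ψ k)
      obtain ⟨d, hd⟩ := hw (ρ j) trivial
      exact ⟨⟨_, h1 k d d.2⟩, by rw [h, ← hd]; exact h d j⟩)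
      (fun w hw i _ => ⟨⟨w, hw⟩, rfl⟩) with h | h
    · exact (SetLike.ext_iff.1 h w).symm.trans (by simp [mem_pi])
    · exact absurd (eq_top_iff.2 fun t _ => (h ▸ mem_top (fun _ => t) :
        (fun _ => t) ∈ Subgroup.pi Set.univ fun i => (f i).range) i₀ trivial) (hL i₀)

theorem scott_maxCF {H : Type*} [Group H] [Finite H] {N A : Subgroup H} [N.Normal] (hN : N ≠ ⊥)
    (hmin : ∀ M : Subgroup H, M.Normal → M ≤ N → M = ⊥ ∨ M = N) (hA : CF.Perm.MaxCF A)
    (e : N ≃* (ι → T)) : ∃ e : N ≃* (ι → T),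
    (∃ L : ι → Subgroup T, (∀ i, L i ≠ ⊤) ∧ ∀ n : N, (n : H) ∈ A ↔ ∀ i, e n i ∈ L i) ∨
    ∃ (k : ℕ) (c : ι → ι), 2 ≤ k ∧
      (∀ j, Nat.card {i // c i = j} = k ∨ Nat.card {i // c i = j} = 0) ∧
      ∀ n : N, (n : H) ∈ A ↔ ∀ i j, c i = c j → e n i = e n j := by
  let ψ : A →* MulAut (ι → T) :=
    (MulAut.congr e).toMonoidHom.comp ((MulAut.conjNormal (H := N)).comp A.subtype)
  have hψ : ∀ (k : A) (n : N), ψ k (e n) = e (MulAut.conjNormal k.1 n) := fun k n => by
    simp [ψ]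
  let L : Subgroup (ι → T) → Subgroup H := fun R => (R.comap e.toMonoidHom).map N.subtype
  have hL : ∀ R (n : N), n.1 ∈ L R ↔ e n ∈ R := fun R n => mem_map_iff_mem N.subtype_injective
  have hLN : ∀ R, L R ≤ N := fun R => map_subtype_le _
  have hn : ∀ R, (∀ k, ∀ w ∈ R, ψ k w ∈ R) → A ≤ normalizer (L R : Set H) := fun R h a ha =>
    mem_normalizer_fintype fun x hx => by
      have := h ⟨a, ha⟩ _ ((hL R ⟨x, hLN R hx⟩).1 hx)
      rw [hψ] at this
      exact (hL R _).2 this
  let D : Subgroup (ι → T) := (A.subgroupOf N).map e.toMonoidHom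
  have hD : ∀ n : N, e n ∈ D ↔ n.1 ∈ A := fun n => mem_map_iff_mem e.injective
  rcases scott hT ψ D (fun h => hN (hA.core N inferInstance fun n hn =>
      (hD ⟨n, hn⟩).1 (h ▸ mem_top _))) (fun k w hw => by
      obtain ⟨n, rfl⟩ := e.surjective w
      rw [hψ, hD]
      exact A.mul_mem (A.mul_mem k.2 ((hD n).1 hw)) (A.inv_mem k.2)) (fun R hR hDR => by
      by_cases h : L R ≤ A
      · refine Or.inl (le_antisymm (fun w hw => ?_) hDR)
        obtain ⟨n, rfl⟩ := e.surjective w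
        exact (hD n).2 (h ((hL R n).2 hw))
      · refine Or.inr (eq_top_iff.2 fun w _ => ?_)
        obtain ⟨n, rfl⟩ := e.surjective w
        obtain ⟨m, hm, a, ha, h1⟩ := hA.decomp (hn R hR) h n.1
        have h2 : a ∈ N := by
          rw [eq_inv_mul_of_mul_eq h1]; exact N.mul_mem (N.inv_mem (hLN R hm)) n.2
        exact (hL R n).1 (h1 ▸ (L R).mul_mem hm ((hL R ⟨a, h2⟩).2 (hDR ((hD _).2 ha)))))
      (fun M hM h => by
      have h1 : (L M).Normal := ⟨fun x hx g => by
        obtain ⟨n, hn', a, ha, rfl⟩ := hA.decomp_normal hN g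
        have h2 := (mem_normalizer_iff.1 (hn M h ha) x).1 hx
        have h3 := hM.conj_mem _ ((hL M ⟨_, hLN M h2⟩).1 h2) (e ⟨n, hn'⟩)
        rw [← map_inv, ← map_mul, ← map_mul, ← hL] at h3
        simpa [mul_assoc] using h3⟩
      refine (hmin _ h1 (hLN M)).imp (fun h => eq_bot_iff.2 fun w hw => ?_)
        fun h => eq_top_iff.2 fun w _ => ?_
      · obtain ⟨n, rfl⟩ := e.surjective w
        rw [show n = 1 from Subtype.ext (mem_bot.1 (h ▸ (hL M n).2 hw)), map_one]
        exact one_mem _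
      · obtain ⟨n, rfl⟩ := e.surjective w
        exact (hL M n).1 (h.symm ▸ n.2)) with ⟨K, h1, h2⟩ | ⟨σ, k, c, h1, h2, h3⟩
  · exact ⟨e, Or.inl ⟨K, h1, fun n => (hD n).symm.trans (h2 _)⟩⟩
  · exact ⟨e.trans (MulEquiv.piCongrRight σ), Or.inr ⟨k, c, h1, h2, fun n =>
      (hD n).symm.trans (h3 _)⟩⟩

end CF.Xs
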