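import Cfsg.Agent.Cls.F2Q
import Cfsg.Agent.Fisch.SymCox

/-! Symmetric groups inside orthogonal groups over the field of two elements. -/

namespace CF.Xs
open Module CF.Geom CF.Cls QuadraticMap Equiv

section gen
variable {V : Type*} [AddCommGroup V] [Module (ZMod 2) V] {Q : QuadraticForm (ZMod 2) V}

theorem z2_add_self (x : V) : x + x = 0 := by
  rw [← two_smul (ZMod 2) x, show (2 : ZMod 2) = 0 from rfl, zero_smul]

theorem oRefl_z2 {v : V} (hv : Q v = 1) (x : V) : (oRefl Q v).1 x = x + polar Q v x • v := by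
  rw [oRefl_apply, hv, inv_one, one_mul, sub_eq_add_neg, neg_eq_iff_add_eq_zero.2 (z2_add_self _)]

/-- A chain of nonsingular vectors gives a faithful symmetric group of isometries. -/
theorem exists_sym_of_chain (n : ℕ) (hn : 4 ≤ n) (v : ℕ → V) (h1 : ∀ i < n, Q (v i) = 1)
    (h2 : ∀ i j, j < n → i + 1 < j → polar Q (v i) (v j) = 0)
    (h3 : ∀ i, i + 1 < n → polar Q (v i) (v (i + 1)) = 1) :
    ∃ φ : Perm (Fin (n + 1)) →* OG Q, Function.Injective φ := by
  obtain ⟨φ, hφ⟩ := CF.Fisch.sym_exists_hom n (fun i : Fin n => oRefl Q (v i))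
    (fun i => oRefl_mul_self _) (fun i j hij => by
      have h := conj_oRefl (oRefl Q (v i)) (v j)
      rw [oRefl_of_polar_eq_zero (h2 i j j.2 hij)] at h
      exact mul_inv_eq_iff_eq_mul.1 h) (fun i j hij => by
      have ha := conj_oRefl (oRefl Q (v i)) (v j)
      have hb := conj_oRefl (oRefl Q (v j)) (v i)
      have hp : polar Q (v i) (v j) = 1 := by rw [← hij]; exact h3 i (hij ▸ j.2)
      rw [oRefl_z2 (h1 i i.2), hp, one_smul, oRefl_inv] at ha
      rw [oRefl_z2 (h1 j j.2), polar_comm, hp, one_smul, oRefl_inv, add_comm] at hb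
      exact ha.trans hb.symm)
  refine ⟨φ, (injective_iff_map_eq_one φ).2 ?_⟩
  by_contra hc
  push Not at hc
  obtain ⟨a, ha, ha1⟩ := hc
  have hnt : Nontrivial φ.ker := ⟨⟨⟨a, ha⟩, 1, fun h => ha1 (congrArg Subtype.val h)⟩⟩
  have hle := Equiv.Perm.alternatingGroup_le_of_normal (α := Fin (n + 1)) (by simp; omega) hnt
  set i0 : Fin n := ⟨0, by omega⟩
  set i1 : Fin n := ⟨1, by omega⟩
  have hmem : swap i0.castSucc i0.succ * swap i1.castSucc i1.succ ∈ alternatingGroup (Fin (n + 1)) := by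
    rw [Perm.mem_alternatingGroup, map_mul, Perm.sign_swap (Fin.castSucc_lt_succ).ne,
      Perm.sign_swap (Fin.castSucc_lt_succ).ne]
    simp
  have hk := hle hmem
  rw [MonoidHom.mem_ker, map_mul, hφ, hφ] at hk
  have he : oRefl Q (v 0) = oRefl Q (v 1) := by
    rw [← oRefl_inv (v 1)]; exact eq_inv_of_mul_eq_one_left hk
  have hx := congrArg (fun g : OG Q => g.1 (v 2)) he
  rw [oRefl_of_polar_eq_zero (h2 0 2 (by omega) (by omega)), oRefl_z2 (h1 1 (by omega)),
    h3 1 (by omega), one_smul] at hx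
  have h0 : v 1 = 0 := by simpa using hx
  have := h1 1 (by omega)
  rw [h0, map_zero] at this
  exact zero_ne_one this

end gen

section model
variable (m : ℕ)

def cA (j : ℕ) : Fin m ⊕ Fin m → ZMod 2 :=
  Sum.elim (fun i => if (i : ℕ) + 1 = j then 1 else 0) 0

def cB (j : ℕ) : Fin m ⊕ Fin m → ZMod 2 :=
  Sum.elim 0 (fun i => if (i : ℕ) = j then 1 else 0)

def cW : Fin m ⊕ Fin m → ZMod 2 := Sum.elim 1 (fun i => ((i : ℕ) + 1 : ℕ))

def cV (i : ℕ) : Fin m ⊕ Fin m → ZMod 2 :=
  if i % 2 = 0 then cA m (i / 2 + 1) + cA m (i / 2) else cB m (i / 2)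

theorem sum_ite_val (j : ℕ) (f : ℕ → ZMod 2) :
    ∑ i : Fin m, (if (i : ℕ) = j then f i else 0) = if j < m then f j else 0 := by
  rw [Fin.sum_univ_eq_sum_range (fun i => if i = j then f i else 0) m, Finset.sum_ite_eq']
  simp

theorem polar_AA (i j : ℕ) : polar (qPlus m (ZMod 2)) (cA m i) (cA m j) = 0 := by
  simp [polar_qPlus, cA]

theorem polar_BB (i j : ℕ) : polar (qPlus m (ZMod 2)) (cB m i) (cB m j) = 0 := by
  simp [polar_qPlus, cB]

theorem polar_AB (i j : ℕ) (hj : j < m) :
    polar (qPlus m (ZMod 2)) (cA m i) (cB m j) = if j + 1 = i then 1 else 0 := by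
  have := sum_ite_val m j (fun k => if k + 1 = i then 1 else 0)
  rw [if_pos hj] at this
  rw [← this, polar_qPlus]
  refine Finset.sum_congr rfl fun k _ => ?_
  simp only [cA, cB, Sum.elim_inl, Sum.elim_inr, Pi.zero_apply, mul_zero, add_zero]
  split_ifs <;> simp

theorem polar_AW (i : ℕ) (hi : i ≤ m) : polar (qPlus m (ZMod 2)) (cA m i) (cW m) = i := by
  rcases i with _ | i
  · simp [polar_qPlus, cA]
  have := sum_ite_val m i (fun k => ((k + 1 : ℕ) : ZMod 2))
  rw [if_pos (by omega)] at this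
  rw [← this, polar_qPlus]
  refine Finset.sum_congr rfl fun k _ => ?_
  simp only [cA, cW, Sum.elim_inl, Sum.elim_inr, Pi.zero_apply, zero_mul, add_zero,
    add_left_inj]
  split_ifs <;> simp

theorem cA_top : cA m (m + 1) = 0 := by
  funext x
  rcases x with x | x
  · have := x.2
    simp only [cA, Sum.elim_inl, Pi.zero_apply]
    rw [if_neg (by omega)]
  · rfl

theorem polar_BW (j : ℕ) (hj : j < m) : polar (qPlus m (ZMod 2)) (cB m j) (cW m) = 1 := by
  have := sum_ite_val m j (fun _ => 1)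
  rw [if_pos hj] at this
  rw [← this, polar_qPlus]
  refine Finset.sum_congr rfl fun k _ => ?_
  simp [cB, cW]

theorem polar_shQ {V : Type*} [AddCommGroup V] [Module (ZMod 2) V] (Q : QuadraticForm (ZMod 2) V)
    (w x y : V) : polar (shQ Q w) x y = polar Q x y :=
  congrArg (fun B => B x y) (polarBilin_shQ (Q := Q) w)

theorem exists_sym_shQ (k : ℕ) (hk : 1 ≤ k) :
    ∃ φ : Perm (Fin (4 * k + 4)) →* OG (shQ (qPlus (2 * k + 1) (ZMod 2)) (cW (2 * k + 1))),
      Function.Injective φ := by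
  set m := 2 * k + 1 with hm
  refine exists_sym_of_chain (4 * k + 3) (by omega) (cV m) (fun i hi => ?_)
    (fun i j hj hij => ?_) (fun i hi => ?_)
  · rw [shQ_apply, cV]
    split_ifs with h
    · have hq : qPlus m (ZMod 2) (cA m (i / 2 + 1) + cA m (i / 2)) = 0 := by
        simp [qPlus_apply, cA]
      rw [hq, zero_add, polar_add_left, polar_AW m (i / 2) (by omega)]
      by_cases h2 : i / 2 = m
      · rw [h2, cA_top, polar_zero_left, zero_add, hm]
        push_cast
        rw [show (2 : ZMod 2) = 0 from rfl]; simp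
      · rw [polar_AW m _ (by omega)]
        push_cast
        generalize ((i / 2 : ℕ) : ZMod 2) = c
        revert c; decide
    · have hq : qPlus m (ZMod 2) (cB m (i / 2)) = 0 := by simp [qPlus_apply, cB]
      rw [hq, zero_add, polar_BW m _ (by omega)]
  · rw [polar_shQ, cV, cV]
    split_ifs with h h' h'
    · simp [polar_add_left, polar_add_right, polar_AA]
    · rw [polar_add_left, polar_AB m _ _ (by omega), polar_AB m _ _ (by omega),
        if_neg (by omega), if_neg (by omega), add_zero]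
    · rw [polar_comm, polar_add_left, polar_AB m _ _ (by omega), polar_AB m _ _ (by omega),
        if_neg (by omega), if_neg (by omega), add_zero]
    · exact polar_BB m _ _
  · rw [polar_shQ, cV, cV]
    split_ifs with h h' h'
    · omega
    · rw [polar_add_left, polar_AB m _ _ (by omega), polar_AB m _ _ (by omega),
        if_pos (by omega), if_neg (by omega), add_zero]
    · rw [polar_comm, polar_add_left, polar_AB m _ _ (by omega), polar_AB m _ _ (by omega),
        if_neg (by omega), if_pos (by omega), zero_add]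
    · omega

theorem qPlus_cW (k : ℕ) : qPlus (2 * k + 1) (ZMod 2) (cW (2 * k + 1)) = ((k + 1 : ℕ) : ZMod 2) := by
  rw [qPlus_apply]
  simp only [cW, Sum.elim_inl, Sum.elim_inr, Pi.one_apply, one_mul]
  rw [Fin.sum_univ_eq_sum_range (fun i => ((i + 1 : ℕ) : ZMod 2)) (2 * k + 1)]
  induction k with
  | zero => simp
  | succ k ih =>
    rw [show 2 * (k + 1) + 1 = 2 * k + 1 + 1 + 1 by ring, Finset.sum_range_succ,
      Finset.sum_range_succ, ih]
    push_cast
    rw [show (2 : ZMod 2) = 0 from rfl]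
    generalize (k : ZMod 2) = c
    revert c; decide

end model

theorem sym_in_orth (k : ℕ) (hk : 1 ≤ k) :
    (Odd k → ∃ φ : Equiv.Perm (Fin (4 * k + 4)) →* ↥(Cfsg.isometryGroup (ZMod 2) (Cfsg.quadFormPlus (2 * k + 1) (ZMod 2))), Function.Injective φ) ∧
    (Even k → ∃ φ : Equiv.Perm (Fin (4 * k + 4)) →* ↥(Cfsg.isometryGroup (ZMod 2) (Cfsg.quadFormMinus (2 * k) (ZMod 2) 1 1)), Function.Injective φ) := by
  obtain ⟨φ, hφ⟩ := exists_sym_shQ k hk
  have hV : finrank (ZMod 2) (Fin (2 * k + 1) ⊕ Fin (2 * k + 1) → ZMod 2) = 2 * (2 * k + 1) := by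
    simp [two_mul]
  have hiff := shQ_iso_iff (qPlus_nondegenerate (F := ZMod 2) (2 * k + 1)) hV (cW (2 * k + 1))
  rw [qPlus_cW] at hiff
  constructor
  · rintro ⟨j, rfl⟩
    obtain ⟨g, hg⟩ := hiff.2 (by
      push_cast
      rw [show (2 : ZMod 2) = 0 from rfl]
      simp; rfl)
    refine ⟨((oEquiv (qPlus _ (ZMod 2))).symm.toMonoidHom.comp
      (ogCongr g (fun x => (hg x).symm)).toMonoidHom).comp φ, ?_⟩
    exact ((oEquiv _).symm.injective.comp (ogCongr g _).injective).comp hφ
  · rintro ⟨j, rfl⟩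
    have hnd : (polarBilin (shQ (qPlus (2 * (j + j) + 1) (ZMod 2)) (cW _))).Nondegenerate := by
      rw [polarBilin_shQ]; exact qPlus_nondegenerate _
    have hnp : ¬ IsPlus (shQ (qPlus (2 * (j + j) + 1) (ZMod 2)) (cW _)) := by
      intro h
      obtain ⟨g, hg⟩ := h.exists_equiv_qPlus hnd hV
      have := hiff.1 ⟨g, fun v => (hg v).symm⟩
      push_cast at this
      generalize (j : ZMod 2) = c at this
      revert c; decide
    obtain ⟨g, hg⟩ := exists_equiv_qMinus hnd hnp (m := 2 * (j + j)) (by rw [hV]; ring) aniso_z2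
    refine ⟨((oEquiv (qMinus _ (ZMod 2) 1 1)).symm.toMonoidHom.comp
      (ogCongr g hg).toMonoidHom).comp φ, ?_⟩
    exact ((oEquiv _).symm.injective.comp (ogCongr g _).injective).comp hφ

end CF.Xs
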