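import Cfsg.Agent.LX.QM

/-!
# The normalizer of an extraspecial 2-group in its twisted group algebra over the field of order three
-/

namespace CF.Xs

open Subgroup

section
variable {E A : Type*} [Group E] [Fintype E] [Ring A] [Algebra (ZMod 3) A]

/-- twisted group algebra data -/
structure Tw (z : E) (ε : E →* A) (τ : A →ₗ[ZMod 3] ZMod 3) : Prop where
  ne : z ≠ 1
  zz : z * z = 1
  zc : ∀ x, x * z = z * x
  ns : ∀ x, x ≠ 1 → x ≠ z → ∃ y, y * x * y⁻¹ = z * x
  pg : IsPGroup 2 E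
  ez : ε z = -1
  t1 : τ 1 = 1
  t0 : ∀ x, x ≠ 1 → x ≠ z → τ (ε x) = 0
  sp : Submodule.span (ZMod 3) (Set.range ε) = ⊤

namespace Tw
variable {z : E} {ε : E →* A} {τ : A →ₗ[ZMod 3] ZMod 3} (h : Tw z ε τ)
include h

theorem tz : τ (ε z) = -1 := by rw [h.ez, map_neg, h.t1]

theorem zinv : z⁻¹ = z := inv_eq_of_mul_eq_one_right h.zz

theorem card : (Fintype.card E : ZMod 3) ≠ 0 := by
  have : Fact (Nat.Prime 2) := ⟨Nat.prime_two⟩
  obtain ⟨k, hk⟩ := IsPGroup.iff_card.1 h.pg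
  rw [← Nat.card_eq_fintype_card, hk, Nat.cast_pow]
  exact pow_ne_zero _ (by decide)

theorem inj {x y : E} (e : ε x = ε y) : x = y := by
  have : τ (ε (x * y⁻¹)) = 1 := by rw [map_mul, e, ← map_mul, mul_inv_cancel, map_one, h.t1]
  by_contra c
  by_cases d : x * y⁻¹ = z
  · rw [d, h.tz] at this; exact absurd this (by decide)
  · rw [h.t0 _ (fun e => c (mul_inv_eq_one.1 e)) d] at this; exact absurd this (by decide)

theorem ext {M : Type*} [AddCommGroup M] [Module (ZMod 3) M] {f g : A →ₗ[ZMod 3] M}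
    (e : ∀ x, f (ε x) = g (ε x)) : f = g := LinearMap.ext_on_range h.sp e

theorem conj (y : E) (a : A) : τ (ε y * a * ε y⁻¹) = τ a := by
  refine LinearMap.congr_fun (h.ext (f := τ ∘ₗ LinearMap.mulRight _ (ε y⁻¹) ∘ₗ LinearMap.mulLeft _ (ε y))
    (g := τ) fun x => ?_) a
  change τ (ε y * ε x * ε y⁻¹) = _
  rw [← map_mul, ← map_mul]
  by_cases a : x = 1
  · simp [a]
  by_cases b : x = z
  · rw [b, h.zc, mul_inv_cancel_right]
  · rw [h.t0 x a b, h.t0 _ (fun e => a (by simpa using e)) fun e => b ?_]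
    rw [mul_inv_eq_iff_eq_mul, ← h.zc] at e
    exact mul_left_cancel e

theorem sum_two {M : Type*} [AddCommGroup M] (f : E → M) (e : ∀ x, x ≠ 1 → x ≠ z → f x = 0) :
    ∑ x, f x = f 1 + f z := by
  classical
  rw [← Finset.sum_pair h.ne.symm]
  exact (Finset.sum_subset (Finset.subset_univ _) fun x _ hx => e x (fun c => hx (by simp [c]))
    fun c => hx (by simp [c])).symm

theorem expand (a : A) : ∑ x, τ (a * ε x⁻¹) • ε x = -a := by
  have : (∑ x, (LinearMap.toSpanSingleton (ZMod 3) A (ε x)) ∘ₗ τ ∘ₗ LinearMap.mulRight _ (ε x⁻¹)) =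
      -LinearMap.id := h.ext fun y => by
    rw [LinearMap.sum_apply, ← Equiv.sum_comp (Equiv.mulRight y)]
    simp only [LinearMap.comp_apply, LinearMap.mulRight_apply, LinearMap.toSpanSingleton_apply,
      Equiv.coe_mulRight, ← map_mul, mul_inv_rev, mul_inv_cancel_left]
    rw [h.sum_two _ fun x a b => by
      rw [h.t0 _ (inv_ne_one.2 a) fun c => b (by rw [← h.zinv, ← c, inv_inv]), zero_smul]]
    rw [inv_one, map_one, h.t1, h.zinv, h.tz, one_mul, map_mul, h.ez, neg_one_mul, smul_neg, ← neg_smul,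
      ← add_smul, show (1 : ZMod 3) + - -1 = -1 by decide]
    simp
  simpa using LinearMap.congr_fun this a

theorem central {a : A} (c : ∀ y, ε y * a = a * ε y) : a = τ a • (1 : A) := by
  have := h.expand a
  rw [h.sum_two _ fun x a1 b => ?_] at this
  · rw [inv_one, map_one, mul_one, h.zinv, h.ez, mul_neg_one, map_neg, smul_neg, neg_smul, neg_neg,
      ← add_smul, show τ a + τ a = - τ a by generalize τ a = t; revert t; decide, neg_smul] at this
    exact (neg_injective this).symm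
  · obtain ⟨y, hy⟩ := h.ns x⁻¹ (inv_ne_one.2 a1) fun c => b (by rw [← h.zinv, ← c, inv_inv])
    have := h.conj y (a * ε x⁻¹)
    rw [← mul_assoc, c, mul_assoc, mul_assoc, ← map_mul, ← map_mul, ← mul_assoc, hy, map_mul ε, h.ez,
      neg_one_mul, mul_neg, map_neg] at this
    rw [show τ (a * ε x⁻¹) = 0 by revert this; generalize τ (a * ε x⁻¹) = t; revert t; decide, zero_smul]

theorem avg (a : A) : ∑ y, ε y * a * ε y⁻¹ = ((Fintype.card E : ZMod 3) * τ a) • (1 : A) := by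
  rw [h.central (a := ∑ y, ε y * a * ε y⁻¹) fun x => ?_, map_sum]
  · simp [h.conj]
  · rw [Finset.mul_sum, Finset.sum_mul, ← Equiv.sum_comp (Equiv.mulLeft x) (fun y => ε y * a * ε y⁻¹ * ε x)]
    refine Finset.sum_congr rfl fun y _ => ?_
    simp only [Equiv.coe_mulLeft, mul_assoc, ← map_mul, mul_inv_rev, inv_mul_cancel, mul_one]
    rw [map_mul, mul_assoc]

theorem exists_unit [Finite A] (α : MulAut E) (hz : α z = z) :
    ∃ u : Aˣ, ∀ x, u * ε x = ε (α x) * u := by
  obtain ⟨a, ha⟩ : ∃ a, ∑ x, ε (α x) * a * ε x⁻¹ ≠ 0 := by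
    by_contra! c
    have : ∑ y, τ ((∑ x, ε (α x) * ε y * ε x⁻¹) * ε y⁻¹) = 0 := by simp [c]
    simp only [Finset.sum_mul, map_sum] at this
    rw [Finset.sum_comm] at this
    have k : ∀ x, ∑ y, τ (ε (α x) * ε y * ε x⁻¹ * ε y⁻¹) =
        (Fintype.card E : ZMod 3) * τ (ε x⁻¹) * τ (ε (α x)) := fun x => by
      rw [← smul_eq_mul, ← map_smul, ← mul_one (ε (α x)), ← mul_smul_comm, ← h.avg, Finset.mul_sum, map_sum]
      simp only [mul_assoc, mul_one]
    simp only [k] at this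
    rw [h.sum_two _ fun x a b => by
      rw [h.t0 _ (inv_ne_one.2 a) fun c => b (by rw [← h.zinv, ← c, inv_inv]), mul_zero, zero_mul]] at this
    rw [hz, h.zinv, h.tz, inv_one, map_one α, map_one, h.t1] at this
    exact (by decide : ∀ t : ZMod 3, t ≠ 0 → t * 1 * 1 + t * -1 * -1 ≠ 0) _ h.card this
  generalize hm : ∑ x, ε (α x) * a * ε x⁻¹ = m at ha
  have k : ∀ y, m * ε y = ε (α y) * m := fun y => by
    rw [← hm, Finset.mul_sum, Finset.sum_mul,
      ← Equiv.sum_comp (Equiv.mulLeft y) (fun x => ε (α x) * a * ε x⁻¹ * ε y)]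
    refine Finset.sum_congr rfl fun x _ => ?_
    simp only [Equiv.coe_mulLeft, mul_assoc, ← map_mul, mul_inv_rev, inv_mul_cancel, mul_one]
    rw [map_mul, map_mul, mul_assoc]
  obtain ⟨x, hx⟩ : ∃ x, τ (m * ε x⁻¹) ≠ 0 := by
    by_contra! c
    exact ha (neg_eq_zero.1 (by rw [← h.expand]; simp [c]))
  have l : m * ∑ y, ε (α.symm y) * ε x⁻¹ * ε y⁻¹ = (Fintype.card E * τ (m * ε x⁻¹)) • (1 : A) := by
    rw [← h.avg, Finset.mul_sum]
    refine Finset.sum_congr rfl fun y _ => ?_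
    rw [← mul_assoc, ← mul_assoc, k, MulEquiv.apply_symm_apply, mul_assoc (ε y)]
  have l2 : m * ((Fintype.card E * τ (m * ε x⁻¹))⁻¹ • ∑ y, ε (α.symm y) * ε x⁻¹ * ε y⁻¹) = 1 := by
    rw [mul_smul_comm, l, smul_smul, inv_mul_cancel₀ (mul_ne_zero h.card hx), one_smul]
  exact ⟨⟨m, _, l2, mul_eq_one_comm.1 l2⟩, k⟩

theorem unit_central (u : Aˣ) (c : ∀ y, ε y * u = u * ε y) : ∃ x, ε x = u := by
  have := h.central c
  rcases (by decide : ∀ t : ZMod 3, t = 0 ∨ t = 1 ∨ t = -1) (τ u) with e | e | e <;> rw [e] at this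
  · have k : (1 : A) = 0 := by rw [← u.mul_inv, this, zero_smul, zero_mul]
    exact absurd (h.t1.symm.trans (by rw [k, map_zero])) (by decide : (1 : ZMod 3) ≠ 0)
  · exact ⟨1, by rw [this, map_one, one_smul]⟩
  · exact ⟨z, by rw [this, h.ez, neg_smul, one_smul]⟩

end Tw
end

theorem exists_tw {E : Type} [Group E] [Fintype E] {z : E} (ne : z ≠ 1) (zz : z * z = 1)
    (zc : ∀ x, x * z = z * x) (ns : ∀ x, x ≠ 1 → x ≠ z → ∃ y, y * x * y⁻¹ = z * x) (pg : IsPGroup 2 E) :
    ∃ (A : Type) (_ : Ring A) (_ : Algebra (ZMod 3) A) (_ : Finite A) (ε : E →* A)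
      (τ : A →ₗ[ZMod 3] ZMod 3), Tw z ε τ := by
  classical
  let V : Submodule (ZMod 3) (E → ZMod 3) :=
    { carrier := {φ | ∀ x, φ (z * x) = -φ x}
      add_mem' := fun a b x => by simp [a x, b x, add_comm]
      zero_mem' := fun x => by simp
      smul_mem' := fun c φ a x => by simp [a x] }
  let ε : E →* Module.End (ZMod 3) V :=
    { toFun := fun x => (LinearMap.funLeft (ZMod 3) (ZMod 3) (· * x)).restrict
        fun φ a y => (congrArg φ (mul_assoc z y x)).trans (a _)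
      map_one' := by ext φ y; simp [LinearMap.restrict_apply]
      map_mul' := fun x x' => by ext φ y; exact congrArg φ.1 (mul_assoc y x x').symm }
  have eε : ∀ x (φ : V) y, (ε x φ).1 y = φ.1 (y * x) := fun _ _ _ => rfl
  let φ0 : V := ⟨fun x => if x = 1 then 1 else if x = z then -1 else 0, fun x => by
    by_cases a : x = 1
    · simp [a, ne]
    by_cases b : x = z
    · simp [b, zz, ne]
    · have c : z * x ≠ 1 := fun e => b (mul_left_cancel (e.trans zz.symm))
      simp [a, b, c]⟩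
  let A := Algebra.adjoin (ZMod 3) (Set.range ε)
  let ε' : E →* A := ε.codRestrict A fun x => Algebra.subset_adjoin ⟨x, rfl⟩
  have : Finite (Module.End (ZMod 3) V) := Module.finite_of_finite (ZMod 3)
  refine ⟨A, inferInstance, inferInstance, inferInstance, ε',
    (LinearMap.proj 1 ∘ₗ V.subtype ∘ₗ LinearMap.applyₗ φ0) ∘ₗ A.val.toLinearMap,
    ne, zz, zc, ns, pg, ?_, by simp [φ0], fun x a b => ?_, ?_⟩
  · refine Subtype.ext (LinearMap.ext fun φ => Subtype.ext (funext fun y => ?_))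
    exact (eε z φ y).trans ((congrArg φ.1 (zc y)).trans (φ.2 y))
  · exact (eε x φ0 1).trans (by simp [φ0, a, b])
  · refine Submodule.map_injective_of_injective (f := A.val.toLinearMap) Subtype.val_injective ?_
    rw [Submodule.map_span, Submodule.map_top, ← Set.range_comp]
    change _ = LinearMap.range (Subalgebra.toSubmodule A).subtype
    rw [Submodule.range_subtype, Algebra.adjoin_eq_span, ← MonoidHom.coe_mrange, Submonoid.closure_eq]
    rfl

open CF.LX CF.Geom in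
theorem exists_ext {K E U : Type*} [Group K] [Group E] [Fintype E] [AddCommGroup U] [Module (ZMod 2) U]
    {A : Type} [Ring A] [Algebra (ZMod 3) A] [Finite A] {z : E} {ε : E →* A} {τ : A →ₗ[ZMod 3] ZMod 3}
    (t : Tw z ε τ) {p : E → U} {q : QuadraticForm (ZMod 2) U} (h : QM p q z) (e : EX (⊤ : Subgroup E) z)
    (ρ : Representation (ZMod 2) K U) (hρ : Function.Injective ρ) (hq : ∀ k u, q (ρ k u) = q u) :
    ∃ (R : Type) (_ : Group R) (_ : Finite R) (ι : E →* R) (κ : R →* K), Function.Injective ι ∧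
      Function.Surjective κ ∧ κ.ker = ι.range ∧
      ∀ r x, ∃ y, r * ι x * r⁻¹ = ι y ∧ p y = ρ (κ r) (p x) := by
  let P : Aˣ → K → Prop := fun u k => ∃ α : MulAut E, (∀ x, u * ε x = ε (α x) * u) ∧ ∀ x, p (α x) = ρ k (p x)
  have mul : ∀ {u v k l}, P u k → P v l → P (u * v) (k * l) := by
    rintro u v k l ⟨α, a, b⟩ ⟨β, c, d⟩
    exact ⟨α * β, fun x => by rw [Units.val_mul, mul_assoc, c, ← mul_assoc, a, mul_assoc]; rfl,
      fun x => by rw [MulAut.mul_apply, b, d, map_mul]; rfl⟩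
  have uniq : ∀ {u k l}, P u k → P u l → k = l := by
    rintro u k l ⟨α, a, b⟩ ⟨β, c, d⟩
    refine hρ (LinearMap.ext (h.surj.forall.2 fun x => ?_))
    rw [← b, ← d, t.inj (u.mul_left_inj.1 ((a x).symm.trans (c x)))]
  let R : Subgroup Aˣ :=
    { carrier := {u | ∃ k, P u k}
      mul_mem' := fun ⟨k, a⟩ ⟨l, b⟩ => ⟨_, mul a b⟩
      one_mem' := ⟨1, 1, by simp, by simp⟩
      inv_mem' := by
        rintro u ⟨k, α, a, b⟩
        refine ⟨k⁻¹, α⁻¹, fun x => ?_, fun x => ?_⟩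
        · rw [Units.inv_mul_eq_iff_eq_mul, ← mul_assoc, a, Units.mul_inv_cancel_right]; simp
        · conv_rhs => rw [← α.apply_symm_apply x, b, ← Module.End.mul_apply, ← map_mul, inv_mul_cancel,
            map_one]
          rfl }
  have inn : ∀ y, P (ε.toHomUnits y) 1 := fun y => ⟨MulAut.conj y, fun x => by simp [← map_mul], fun x => by
    rw [MulAut.conj_apply, h.mul, h.mul, h.inv, add_right_comm, ZModModule.add_self, zero_add, map_one]; rfl⟩
  let κ : R →* K := MonoidHom.mk' (fun r => r.2.choose) fun r s =>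
    uniq (r * s).2.choose_spec (mul r.2.choose_spec s.2.choose_spec)
  have hκ : ∀ r : R, P r (κ r) := fun r => r.2.choose_spec
  let ι : E →* R := ε.toHomUnits.codRestrict R fun y => ⟨1, inn y⟩
  refine ⟨R, inferInstance, inferInstance, ι, κ, fun x y c => t.inj (congrArg (fun r : R => (r.1 : A)) c),
    fun k => ?_, le_antisymm (fun r hr => ?_) ?_, fun r x => ?_⟩
  · obtain ⟨α, hα⟩ := h.lift h (LinearEquiv.ofLinear (ρ k) (ρ k⁻¹) (by
      rw [← Module.End.mul_eq_comp, ← map_mul, mul_inv_cancel, map_one]; rfl) (by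
      rw [← Module.End.mul_eq_comp, ← map_mul, inv_mul_cancel, map_one]; rfl)) (hq k)
    obtain ⟨u, hu⟩ := t.exists_unit α (h.map_z e α)
    exact ⟨⟨u, k, α, hu, hα⟩, uniq (hκ _) ⟨α, hu, hα⟩⟩
  · obtain ⟨α, a, b⟩ := hκ r
    rw [MonoidHom.mem_ker.1 hr, map_one] at b
    obtain ⟨y, rfl⟩ : α ∈ Cfsg.Inn E := h.ker_rho e ▸ Subtype.ext (LinearEquiv.ext
      (h.surj.forall.2 fun x => (h.rho_apply e α x).trans (b x)))
    obtain ⟨x, hx⟩ := t.unit_central (ε.toHomUnits y⁻¹ * r) fun x => by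
      rw [Units.val_mul, mul_assoc, a, ← mul_assoc, ← mul_assoc, MonoidHom.coe_toHomUnits, ← map_mul,
        ← map_mul, MulAut.conj_apply, ← mul_assoc, inv_mul_cancel_left]
    refine ⟨y * x, Subtype.ext (Units.ext ?_)⟩
    change ε (y * x) = _
    rw [map_mul, hx, Units.val_mul, ← mul_assoc, MonoidHom.coe_toHomUnits, ← map_mul, mul_inv_cancel,
      map_one, one_mul]
  · rintro _ ⟨y, rfl⟩
    exact uniq (hκ _) (inn y)
  · obtain ⟨α, a, b⟩ := hκ r
    exact ⟨α x, mul_inv_eq_iff_eq_mul.2 (Subtype.ext (Units.ext (a x))), b x⟩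

end CF.Xs
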